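import Cfsg.Agent.H0.EJ2U.D
import Cfsg.Agent.H0.MU33.Main
set_option maxRecDepth 100000
set_option Elab.async false
set_option linter.unusedSectionVars false
namespace H0.EJ2U
open H0 BN 
theorem defs_ok : DefsOK R.p defs 13 := defsOK_of_chk c7
universe u
variable {G : Type u} [Group G] [Finite G] (m0 : Model G) (h0 : m0.R = H0.MJ2p.R)
noncomputable def m : Model G := m0.ext (lg := nat_lit 7) (N := nat_lit 128) (l := H0.MJ2p.nl) h0 nl nl_ok 13 rfl defs defs_ok (by decide +kernel)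
theorem mR : (m m0 h0).R = R := rfl
variable (hb : m0.pst [1, 68, 37, 0] = ⊥) (hc : Nat.card G = 604800)
include h0 hb hc
theorem base : (m m0 h0).pst [1, 68, 37, 0] = ⊥ := hb
omit hb hc in
theorem geq {x : ℕ} (h : x < 13) : (m m0 h0).g x = m0.g x := m0.ext_g h0 _ _ _ _ _ _ _ h
theorem U_iso : Nonempty (PG 8 H0.MU33.B ≃* gen (m m0 h0).g ((lets 8).map (sh 13))) :=
  iso_emb _ 13 (all_take_done (all_take_step (all_take_zero _ ((H0.MU33.B.map (sh 13)).map fun r => (r, ([] : List ℕ)))) ((m m0 h0).pairs_of (base m0 h0 hb hc) (Model.via _ (mR m0 h0) (fun R => pairsB R [1, 68, 37, 0] ((((H0.MU33.B.map (sh 13)).map fun r => (r, ([] : List ℕ))).drop 0).take 34)) c0))) (by decide +kernel)) (H0.MU33.simple (Pres.pg _ _)) ((m m0 h0).ne_of_neB (Model.via _ (mR m0 h0) (fun R => neB R [13] [] 1 36 1) c1)) (by decide +kernel)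
omit hb hc in
theorem U_fix : gen (m m0 h0).g ((lets 8).map (sh 13)) ≤ m0.pst [0] := (m m0 h0).gen_le_of_fixP (Model.via _ (mR m0 h0) (fun R => Model.fixP R [0] ((lets 8).map (sh 13))) c2)
omit hb hc in
theorem o1 : m0.orb (gen (m m0 h0).g ((lets 8).map (sh 13))) 1 = Set.Ico 1 (1 + 36) :=
  (m m0 h0).orb_eq_ico (((m m0 h0)).inOrb_grow [0, 3, 4, 6, 1, 4, 1] (((m m0 h0)).inOrb_self _ 1) (Model.via _ (mR m0 h0) (fun R => Model.growW R [[13], [14], [15], [16], [17], [18], [19], [20]] [0, 3, 4, 6, 1, 4, 1] (Nat.pow 2 1) (ival 1 36)) c3)) (Model.via _ (mR m0 h0) (fun R => Model.invW R [[13], [14], [15], [16], [17], [18], [19], [20]] 1 36) c4) (by decide)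
omit hb hc in
theorem o2 : m0.orb (gen (m m0 h0).g ((lets 8).map (sh 13))) 37 = Set.Ico 37 (37 + 63) :=
  (m m0 h0).orb_eq_ico (((m m0 h0)).inOrb_grow [0, 1, 4, 6, 0, 1, 6, 0, 1] (((m m0 h0)).inOrb_self _ 37) (Model.via _ (mR m0 h0) (fun R => Model.growW R [[13], [14], [15], [16], [17], [18], [19], [20]] [0, 1, 4, 6, 0, 1, 6, 0, 1] (Nat.pow 2 37) (ival 37 63)) c5)) (Model.via _ (mR m0 h0) (fun R => Model.invW R [[13], [14], [15], [16], [17], [18], [19], [20]] 37 63) c6) (by decide)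
end H0.EJ2U
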